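import Cfsg.Agent.Lib.Supersolvable.Tower

/-! Supersolvable Hall subgroups of the same order are conjugate. -/

set_option autoImplicit false
set_option linter.style.haveILetI false

namespace CfsgLib.Supersolvable.HallConj

open Cfsg
open scoped Pointwise

universe u

theorem exists_conj {G : Type u} [Group G] [Finite G] (H K : Subgroup G) (hH : IsSupersolvable H)
    (hK : IsSupersolvable K) (hcard : Nat.card H = Nat.card K) (hHall : (Nat.card H).Coprime H.index) :
    ∃ x : G, H.map (MulAut.conj x).toMonoidHom = K := by
  classical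
  induction hn : Nat.card G using Nat.strong_induction_on generalizing G with
  | _ n ih =>
    subst hn
    by_cases h1 : Nat.card H = 1
    · refine ⟨1, ?_⟩
      have h2 : Nat.card K = 1 := hcard.symm.trans h1
      rw [Subgroup.card_eq_one.mp h1, Subgroup.map_bot, Subgroup.card_eq_one.mp h2]
    have hne : (Nat.card H).primeFactors.Nonempty := Nat.nonempty_primeFactors.mpr (by
      have := Nat.card_pos (α := H); omega)
    set p := (Nat.card H).primeFactors.max' hne with hp
    obtain ⟨hpp, hpd, -⟩ := Nat.mem_primeFactors.mp (Finset.max'_mem _ hne)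
    rw [← hp] at hpp hpd
    haveI := Fact.mk hpp
    have hmax : ∀ q : ℕ, q.Prime → q ∣ Nat.card H → q ≤ p := fun q hq hqd =>
      Finset.le_max' _ _ (Nat.mem_primeFactors.mpr ⟨hq, hqd, Nat.card_pos.ne'⟩)
    have key : ∀ L : Subgroup G, IsSupersolvable L → Nat.card L = Nat.card H →
        ∃ P : Sylow p G, (P : Subgroup G) ≤ L ∧ L ≤ Subgroup.normalizer ((P : Subgroup G) : Set G) := by
      intro L hL hLc
      obtain ⟨S⟩ : Nonempty (Sylow p L) := inferInstance
      haveI := Tower.sylow_normal (fun M hM => Cfsg.Agent.S0527.result hL M hM) (fun q hq hqd => hmax q hq (hLc ▸ hqd)) S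
      have hc : Nat.card ↥((S : Subgroup L).map L.subtype) = p ^ (Nat.card G).factorization p := by
        rw [← Nat.card_congr ((S : Subgroup L).equivMapOfInjective _ L.subtype_injective).toEquiv, S.card_eq_multiplicity,
          hLc, ← H.card_mul_index, Nat.factorization_mul Nat.card_pos.ne' Subgroup.index_ne_zero_of_finite,
          Finsupp.add_apply]
        rw [Nat.factorization_eq_zero_of_not_dvd (n := H.index) (fun h => hpp.ne_one
          (Nat.eq_one_of_dvd_coprimes hHall hpd h)), add_zero]
      refine ⟨Sylow.ofCard _ hc, Subgroup.map_subtype_le _, ?_⟩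
      rintro l hl
      refine Subgroup.mem_normalizer_fintype ?_
      rintro _ ⟨s, hs, rfl⟩
      exact ⟨⟨l, hl⟩ * s * ⟨l, hl⟩⁻¹, Subgroup.Normal.conj_mem ‹(S : Subgroup L).Normal› s hs ⟨l, hl⟩, rfl⟩
    obtain ⟨P, hPH, hHN⟩ := key H hH rfl
    obtain ⟨Q, hQK, hKN⟩ := key K hK hcard.symm
    obtain ⟨y, hy⟩ := MulAction.exists_smul_eq G Q P
    set K' := K.map (MulAut.conj y).toMonoidHom with hK'
    have hPK : (P : Subgroup G) ≤ K' := by
      rw [← hy, Sylow.smul_def, Sylow.pointwise_smul_def]
      exact Subgroup.map_mono hQK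
    have hK'N : K' ≤ Subgroup.normalizer ((P : Subgroup G) : Set G) := by
      rw [← hy, Sylow.smul_def, Sylow.pointwise_smul_def]
      refine (Subgroup.map_mono hKN).trans ?_
      exact Subgroup.le_normalizer_map _
    have hK'c : Nat.card K' = Nat.card H :=
      (Nat.card_congr (K.equivMapOfInjective _ (MulAut.conj y).injective).toEquiv).symm.trans hcard.symm
    have hK's : IsSupersolvable K' :=
      isSupersolvable_of_surjective (K.equivMapOfInjective _ (MulAut.conj y).injective).toMonoidHom
        (K.equivMapOfInjective _ (MulAut.conj y).injective).surjective hK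
    suffices ∃ x : G, H.map (MulAut.conj x).toMonoidHom = K' by
      obtain ⟨x, hx⟩ := this
      refine ⟨y⁻¹ * x, ?_⟩
      have h2 := congrArg (Subgroup.map (MulAut.conj y⁻¹).toMonoidHom) hx
      rw [hK', Subgroup.map_map, Subgroup.map_map] at h2
      convert h2 using 1
      · congr 1; ext z; simp [mul_assoc]
      · conv_lhs => rw [← Subgroup.map_id K]
        congr 1; ext z; simp [mul_assoc]
    set N := Subgroup.normalizer ((P : Subgroup G) : Set G) with hN
    by_cases hNt : N = ⊤
    · haveI : (P : Subgroup G).Normal := Subgroup.normalizer_eq_top_iff.mp (hN.symm.trans hNt)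
      set π := QuotientGroup.mk' (P : Subgroup G) with hπd
      have hπ := QuotientGroup.mk'_surjective (P : Subgroup G)
      have hcm : ∀ L : Subgroup G, (P : Subgroup G) ≤ L → Nat.card L = Nat.card (L.map π) * Nat.card (P : Subgroup G) := by
        intro L hL
        have e1 := (L.map π).card_mul_index
        rw [Subgroup.index_map_eq L hπ (by rwa [QuotientGroup.ker_mk'])] at e1
        have e3 : Nat.card (L.map π) * L.index * Nat.card (P : Subgroup G) = Nat.card L * L.index := by
          rw [e1, ← Subgroup.card_eq_card_quotient_mul_card_subgroup, L.card_mul_index]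
        rw [mul_right_comm] at e3
        exact (Nat.eq_of_mul_eq_mul_right (Nat.pos_of_ne_zero Subgroup.index_ne_zero_of_finite) e3).symm
      have hc : Nat.card (H.map π) = Nat.card (K'.map π) :=
        Nat.eq_of_mul_eq_mul_right Nat.card_pos ((hcm H hPH).symm.trans (hK'c.symm.trans (hcm K' hPK)))
      have hlt : Nat.card (G ⧸ (P : Subgroup G)) < Nat.card G := by
        rw [(P : Subgroup G).card_eq_card_quotient_mul_card_subgroup]
        refine lt_mul_of_one_lt_right Nat.card_pos (lt_of_lt_of_le hpp.one_lt (Nat.le_of_dvd Nat.card_pos ?_))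
        exact P.dvd_card_of_dvd_card (hpd.trans (Subgroup.card_subgroup_dvd_card H))
      obtain ⟨xb, hxb⟩ := ih _ hlt (H.map π) (K'.map π)
        (isSupersolvable_of_surjective _ (π.subgroupMap_surjective H) hH)
        (isSupersolvable_of_surjective _ (π.subgroupMap_surjective K') hK's) hc
        (by
          rw [Subgroup.index_map_eq H hπ (by rwa [QuotientGroup.ker_mk'])]
          exact hHall.coprime_dvd_left ⟨_, hcm H hPH⟩) rfl
      obtain ⟨x, rfl⟩ := hπ xb
      refine ⟨x, Subgroup.eq_of_le_of_card_ge ?_ ?_⟩
      · have hker : π.ker ≤ K' := by rwa [QuotientGroup.ker_mk']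
        rw [← Subgroup.comap_map_eq_self hker, ← Subgroup.map_le_iff_le_comap, ← hxb, Subgroup.map_map, Subgroup.map_map]
        refine le_of_eq ?_
        congr 1
      · rw [hK'c, ← Nat.card_congr (H.equivMapOfInjective _ (MulAut.conj x).injective).toEquiv]
    · have hlt : Nat.card N < Nat.card G := lt_of_le_of_ne (Subgroup.card_le_card_group _)
        (fun h => hNt (Subgroup.eq_top_of_card_eq _ h))
      obtain ⟨x, hx⟩ := ih _ hlt (H.subgroupOf N) (K'.subgroupOf N)
        (isSupersolvable_of_surjective (Subgroup.subgroupOfEquivOfLe hHN).symm.toMonoidHom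
          (Subgroup.subgroupOfEquivOfLe hHN).symm.surjective hH)
        (isSupersolvable_of_surjective (Subgroup.subgroupOfEquivOfLe hK'N).symm.toMonoidHom
          (Subgroup.subgroupOfEquivOfLe hK'N).symm.surjective hK's)
        (by rw [Nat.card_congr (Subgroup.subgroupOfEquivOfLe hHN).toEquiv,
          Nat.card_congr (Subgroup.subgroupOfEquivOfLe hK'N).toEquiv, hK'c])
        (by
          rw [Nat.card_congr (Subgroup.subgroupOfEquivOfLe hHN).toEquiv]
          exact hHall.coprime_dvd_right (Dvd.intro _ (Subgroup.relIndex_mul_index hHN))) rfl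
      refine ⟨x, ?_⟩
      have h2 := congrArg (Subgroup.map N.subtype) hx
      rw [Subgroup.map_subgroupOf_eq_of_le hK'N, Subgroup.map_map] at h2
      rw [← h2]
      conv_lhs => rw [← Subgroup.map_subgroupOf_eq_of_le hHN, Subgroup.map_map]
      rfl

end CfsgLib.Supersolvable.HallConj
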