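import Cfsg.Agent.Lib.Supersolvable.Prime
import Cfsg.Agent.Lib.GroupB.OrderType
import Cfsg.Agent.Lib.GroupB.Hall
import Cfsg.Agent.Lib.Solvable.Basics
import Cfsg.Agent.Lib.Solvable.Frattini
import Cfsg.Agent.Lib.PSolvable
import Cfsg.Agent.Lib.PLocal.SolvablePrimitive
import Cfsg.Agent.S0580

/-! Huppert's criterion for supersolvability. -/
set_option autoImplicit false
open Cfsg

namespace CfsgLib.Supersolvable.Huppert
open Subgroup

universe u

variable {G : Type*} [Group G]

/-- A linear map of exponent `p - 1` over the prime field has an eigenvector. -/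
theorem exists_eigen_linear {p : ℕ} [Fact p.Prime] {V : Type*} [AddCommGroup V] [Module (ZMod p) V] [Nontrivial V]
    (φ : Module.End (ZMod p) V) (hφ : φ ^ (p - 1) = 1) : ∃ (a : ZMod p) (v : V), v ≠ 0 ∧ φ v = a • v := by
  classical
  by_contra hne
  push Not at hne
  have hinj : ∀ (s : Finset (ZMod p)) (v : V),
      Polynomial.aeval φ (∏ a ∈ s, (Polynomial.X - Polynomial.C a)) v = 0 → v = 0 := by
    intro s
    induction s using Finset.induction_on with
    | empty => intro v hv; simpa using hv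
    | @insert a s ha ih =>
      intro v hv
      rw [Finset.prod_insert ha, map_mul, Module.End.mul_apply] at hv
      refine ih v ?_
      simp only [map_sub, Polynomial.aeval_X, Polynomial.aeval_C, LinearMap.sub_apply,
        Module.algebraMap_end_apply, sub_eq_zero] at hv
      by_contra hv0
      exact hne a _ hv0 hv
  have h0 : Polynomial.aeval φ (∏ a : ZMod p, (Polynomial.X - Polynomial.C a)) = 0 := by
    rw [show (∏ a : ZMod p, (Polynomial.X - Polynomial.C a)) = Polynomial.X ^ p - Polynomial.X from ?_, map_sub,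
      map_pow, Polynomial.aeval_X]
    · have hp1 := (Fact.out : p.Prime).one_lt
      obtain ⟨e, he⟩ : ∃ e, e = p - 1 ∧ φ ^ p = φ ^ (e + 1) := ⟨p - 1, rfl, by congr 1; omega⟩
      rw [he.2, pow_succ, he.1, hφ, one_mul, sub_self]
    symm
    have hroots := FiniteField.roots_X_pow_card_sub_X (ZMod p)
    rw [ZMod.card] at hroots
    have hlt : (Polynomial.X : Polynomial (ZMod p)).natDegree < (Polynomial.X ^ p : Polynomial (ZMod p)).natDegree := by
      simp [(Fact.out : p.Prime).one_lt]
    have hdeg : (Polynomial.X ^ p - Polynomial.X : Polynomial (ZMod p)).natDegree = p := by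
      rw [Polynomial.natDegree_sub_eq_left_of_natDegree_lt hlt, Polynomial.natDegree_X_pow]
    have hmon : (Polynomial.X ^ p - Polynomial.X : Polynomial (ZMod p)).Monic :=
      Polynomial.monic_X_pow_sub (by rw [Polynomial.degree_X]; exact_mod_cast (Fact.out : p.Prime).one_lt)
    have h1 := Polynomial.prod_multiset_X_sub_C_of_monic_of_roots_card_eq hmon (by
      rw [hroots, hdeg]; simp [ZMod.card])
    rw [hroots] at h1
    exact h1.symm
  obtain ⟨x, hx⟩ := exists_ne (0 : V)
  exact hx (hinj Finset.univ x (by rw [h0]; rfl))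

/-- An additive map of exponent `p - 1` of a group of exponent `p` has an eigenvector. -/
theorem exists_eigen_add {p : ℕ} [Fact p.Prime] {V : Type*} [AddCommGroup V] [Module (ZMod p) V] [Nontrivial V]
    (f : V →+ V) (hf : ∀ v, f^[p - 1] v = v) : ∃ (n : ℕ) (v : V), v ≠ 0 ∧ f v = n • v := by
  let φ : Module.End (ZMod p) V := AddMonoidHom.toZModLinearMap p f
  have hφ : φ ^ (p - 1) = 1 := LinearMap.ext fun v => by
    rw [Module.End.pow_apply]
    exact hf v
  obtain ⟨a, v, hv, he⟩ := exists_eigen_linear φ hφ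
  refine ⟨a.val, v, hv, ?_⟩
  rw [← ZMod.natCast_zmod_val a, Nat.cast_smul_eq_nsmul] at he
  exact he

/-- An automorphism of exponent `p - 1` of an elementary abelian `p`-group has an eigenvector. -/
theorem exists_eigen {N : Type*} [Group N] [Nontrivial N] {p : ℕ} [Fact p.Prime]
    (hc : ∀ a b : N, a * b = b * a) (hp : ∀ a : N, a ^ p = 1) (α : MulAut N) (hα : α ^ (p - 1) = 1) :
    ∃ (n : ℕ) (x : N), x ≠ 1 ∧ α x = x ^ n := by
  letI : CommGroup N := { (inferInstance : Group N) with mul_comm := hc }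
  letI : Module (ZMod p) (Additive N) := AddCommGroup.zmodModule fun x => congrArg Additive.ofMul (hp x.toMul)
  let f : Additive N →+ Additive N := MonoidHom.toAdditive α.toMonoidHom
  have hpow : ∀ (i : ℕ) (v : Additive N), (f^[i]) v = Additive.ofMul ((α ^ i) v.toMul) := by
    intro i
    induction i with
    | zero => intro v; rfl
    | succ i ih =>
      intro v
      rw [Function.iterate_succ_apply', pow_succ', ih]
      rfl
  obtain ⟨n, v, hv, he⟩ := exists_eigen_add (p := p) f fun v => by rw [hpow, hα]; rfl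
  exact ⟨n, v.toMul, hv, congrArg Additive.toMul he⟩

/-- A minimal normal subgroup on which the group induces an abelian group of exponent `p - 1` has order `p`. -/
theorem card_eq_prime [Finite G] {p : ℕ} [hp : Fact p.Prime] {N : Subgroup G} [hN : N.Normal] (hN0 : N ≠ ⊥)
    (hmin : ∀ K : Subgroup G, K.Normal → K ≤ N → K = ⊥ ∨ K = N)
    (hc : ∀ a ∈ N, ∀ b ∈ N, a * b = b * a) (hpN : ∀ a ∈ N, a ^ p = 1)
    (hab : ∀ g h : G, (MulAut.conjNormal g : MulAut N) * MulAut.conjNormal h = MulAut.conjNormal h * MulAut.conjNormal g)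
    (hexp : ∀ g : G, (MulAut.conjNormal g : MulAut N) ^ (p - 1) = 1) : Nat.card N = p := by
  haveI : Nontrivial N := N.nontrivial_iff_ne_bot.mpr hN0
  have hsc : ∀ g : G, ∃ n : ℕ, ∀ a ∈ N, g * a * g⁻¹ = a ^ n := by
    intro g
    obtain ⟨n, x, hx, hxe⟩ := exists_eigen (fun a b => Subtype.ext (hc a a.2 b b.2))
      (fun a => Subtype.ext (by rw [SubgroupClass.coe_pow]; exact hpN a a.2)) (MulAut.conjNormal g : MulAut N) (hexp g)
    refine ⟨n, ?_⟩
    let E : Subgroup G :=
      { carrier := {a | a ∈ N ∧ g * a * g⁻¹ = a ^ n}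
        one_mem' := ⟨one_mem _, by simp⟩
        mul_mem' := fun {a b} ha hb => ⟨mul_mem ha.1 hb.1, by
          rw [← conj_mul, ha.2, hb.2, (show Commute a b from hc a ha.1 b hb.1).mul_pow]⟩
        inv_mem' := fun {a} ha => ⟨inv_mem ha.1, by rw [← conj_inv, ha.2, inv_pow]⟩ }
    have hEn : E.Normal := ⟨fun a ha h => ⟨hN.conj_mem a ha.1 h, by
      have e := congrArg (fun f : MulAut N => ((f ⟨a, ha.1⟩ : N) : G)) (hab g h)
      simp only [MulAut.mul_apply, MulAut.conjNormal_apply] at e
      rw [e, ha.2, conj_pow]⟩⟩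
    rcases hmin E hEn (fun a ha => ha.1) with h1 | h1
    · exfalso
      have : (x : G) ∈ E := ⟨x.2, by
        have := congrArg Subtype.val hxe
        rwa [MulAut.conjNormal_apply, SubgroupClass.coe_pow] at this⟩
      rw [h1, Subgroup.mem_bot] at this
      exact hx (Subtype.ext this)
    · intro a ha
      have : a ∈ E := h1.symm ▸ ha
      exact this.2
  obtain ⟨x, hx⟩ := exists_ne (1 : N)
  have hz : (zpowers (x : G)).Normal := ⟨fun a ha h => by
    obtain ⟨n, hn⟩ := hsc h
    rw [hn a ((zpowers_le.mpr x.2) ha)]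
    exact pow_mem ha n⟩
  rcases hmin _ hz (zpowers_le.mpr x.2) with h1 | h1
  · exact absurd (Subtype.ext (zpowers_eq_bot.mp h1)) hx
  · rw [← h1, Nat.card_zpowers]
    exact orderOf_eq_prime (hpN x x.2) fun e => hx (Subtype.ext e)

/-- A minimal normal subgroup of a supersolvable group has prime order. -/
theorem card_minimal [Finite G] (hG : IsSupersolvable G) {T : Subgroup G} [hT : T.Normal] (hT0 : T ≠ ⊥)
    (hmin : ∀ K : Subgroup G, K.Normal → K ≤ T → K = ⊥ ∨ K = T) : (Nat.card T).Prime := by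
  suffices ∀ S : Subgroup G, Reach S → T ⊓ S ≠ ⊥ → (Nat.card T).Prime from
    this ⊤ (iff_reach.mp hG) (by rwa [inf_top_eq])
  intro S hS
  induction hS with
  | bot => intro h; exact absurd (inf_bot_eq T) h
  | @step M g hM hn ih =>
    intro h
    by_cases hb : T ⊓ M = ⊥
    · haveI := hM.normal
      haveI := hn
      have hle : T ≤ M ⊔ zpowers g := by
        rcases hmin (T ⊓ (M ⊔ zpowers g)) inferInstance inf_le_left with h1 | h1
        · exact absurd h1 h
        · exact inf_eq_left.mp h1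
      let f : T →* ↥(zpowers (QuotientGroup.mk' M g)) := ((QuotientGroup.mk' M).comp T.subtype).codRestrict _ fun a => by
        have h2 := mem_map_of_mem (QuotientGroup.mk' M) (hle a.2)
        rwa [Subgroup.map_sup, MonoidHom.map_zpowers, (map_eq_bot_iff M).2 (QuotientGroup.ker_mk' M).ge, bot_sup_eq] at h2
      haveI : IsCyclic T := isCyclic_of_injective f ((injective_iff_map_eq_one f).mpr fun a ha => by
        have : (a : G) ∈ T ⊓ M := ⟨a.2, (QuotientGroup.eq_one_iff _).mp (congrArg Subtype.val ha)⟩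
        rw [hb, Subgroup.mem_bot] at this
        exact Subtype.ext this)
      obtain ⟨x, hx⟩ : ∃ x : G, zpowers x = T := by
        obtain ⟨z, hz⟩ := IsCyclic.exists_generator (α := T)
        exact ⟨z, le_antisymm (zpowers_le.mpr z.2) fun a ha => by
          obtain ⟨k, hk⟩ := hz ⟨a, ha⟩
          exact ⟨k, by simpa using congrArg Subtype.val hk⟩⟩
      have hxn : (zpowers x).Normal := by rw [hx]; exact hT
      have hx1 : x ≠ 1 := fun e => hT0 (by rw [← hx, e, zpowers_one_eq_bot])
      obtain ⟨r, hr, hrd⟩ := Nat.exists_prime_and_dvd (mt orderOf_eq_one_iff.mp hx1)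
      have hro : orderOf (x ^ (orderOf x / r)) = r := orderOf_pow_orderOf_div (orderOf_pos x).ne' hrd
      have hle' : zpowers (x ^ (orderOf x / r)) ≤ zpowers x := zpowers_le.mpr (pow_mem (mem_zpowers x) _)
      rcases hmin _ (normal_of_le_zpowers hxn hle') (hle'.trans hx.le) with h1 | h1
      · rw [zpowers_eq_bot] at h1
        rw [h1, orderOf_one] at hro
        exact absurd hro.symm hr.ne_one
      · rw [← h1, Nat.card_zpowers, hro]
        exact hr
    · exact ih hb

/-- In a supersolvable group, a commutator or `(p-1)`-th power of elements of a `p'`-group fixes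
every normal `p`-subgroup pointwise. -/
theorem commute_normal [Finite G] (hG : IsSupersolvable G) {p : ℕ} [hp : Fact p.Prime] {R : Subgroup G} [hR : R.Normal]
    (hRp : IsPGroup p R) {c : G} (hcp : ¬ p ∣ orderOf c)
    (hc : (∃ u v : G, c = u * v * u⁻¹ * v⁻¹) ∨ ∃ u : G, c = u ^ (p - 1) ∧ ¬ p ∣ orderOf u)
    {x : G} (hx : x ∈ R) : c * x = x * c := by
  suffices ∀ S : Subgroup G, Reach S → ∀ y, y ∈ S → y ∈ R → c * y = y * c from this ⊤ (iff_reach.mp hG) x trivial hx
  intro S hS
  induction hS with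
  | bot => intro y hy _; rw [Subgroup.mem_bot.mp hy, mul_one, one_mul]
  | @step M g hM hn ih =>
    intro y hy hyR
    haveI := hM.normal
    set π := QuotientGroup.mk' M with hπd
    have hπ := QuotientGroup.mk'_surjective M
    have hZ : (M ⊔ zpowers g).map π = zpowers (π g) := by
      rw [Subgroup.map_sup, MonoidHom.map_zpowers, (map_eq_bot_iff M).2 (QuotientGroup.ker_mk' M).ge, bot_sup_eq]
    have hzn : (zpowers (π g)).Normal := hZ ▸ hn.map π hπ
    have hyz : π y ∈ zpowers (π g) := hZ ▸ mem_map_of_mem π hy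
    haveI hYn : (zpowers (π y)).Normal := normal_of_le_zpowers hzn (zpowers_le.mpr hyz)
    obtain ⟨e, he⟩ := IsPGroup.iff_orderOf.mp hRp ⟨y, hyR⟩
    rw [Subgroup.orderOf_mk] at he
    obtain ⟨e', -, he'⟩ := (Nat.dvd_prime_pow hp.out).mp (he ▸ orderOf_map_dvd π y)
    let ψ : (G ⧸ M) →* MulAut ↥(zpowers (π y)) := MulAut.conjNormal
    have hcom : ∀ a b : MulAut ↥(zpowers (π y)), a * b = b * a := fun a b =>
      (IsCyclic.mulAutMulEquiv _).injective (by rw [map_mul, map_mul, mul_comm])
    have hψ : ψ (π c) = 1 := by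
      rcases hc with ⟨u, v, rfl⟩ | ⟨u, rfl, hu⟩
      · simp only [map_mul, map_inv]
        rw [hcom (ψ (π u)) (ψ (π v)), mul_inv_cancel_right, mul_inv_cancel]
      · rw [map_pow, map_pow, ← orderOf_dvd_iff_pow_eq_one]
        have h1 : orderOf (ψ (π u)) ∣ Nat.card (MulAut ↥(zpowers (π y))) := orderOf_dvd_natCard _
        rw [IsCyclic.card_mulAut, Nat.card_zpowers, he'] at h1
        have h2 : orderOf (ψ (π u)) ∣ orderOf u := (orderOf_map_dvd ψ _).trans (orderOf_map_dvd π u)
        rcases Nat.eq_zero_or_pos e' with rfl | hpos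
        · rw [pow_zero, Nat.totient_one, Nat.dvd_one] at h1
          rw [h1]
          exact one_dvd _
        · rw [Nat.totient_prime_pow hp.out hpos] at h1
          exact ((Nat.Coprime.pow_left _ (hp.out.coprime_iff_not_dvd.mpr fun h => hu (h.trans h2))).symm).dvd_of_dvd_mul_left h1
    have h3 : π (y⁻¹ * (c * y * c⁻¹)) = 1 := by
      have h4 := congrArg (fun f : MulAut ↥(zpowers (π y)) => ((f ⟨π y, mem_zpowers _⟩ : ↥(zpowers (π y))) : G ⧸ M)) hψ
      simp only [MulAut.one_apply] at h4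
      change π c * π y * (π c)⁻¹ = π y at h4
      rw [map_mul, map_mul, map_mul, map_inv, map_inv, h4, inv_mul_cancel]
    have hn1 : y⁻¹ * (c * y * c⁻¹) ∈ M := (QuotientGroup.eq_one_iff _).mp h3
    have hnR : y⁻¹ * (c * y * c⁻¹) ∈ R := mul_mem (inv_mem hyR) (hR.conj_mem y hyR c)
    obtain ⟨i, hi⟩ := IsPGroup.iff_orderOf.mp hRp ⟨_, hnR⟩
    rw [Subgroup.orderOf_mk] at hi
    exact CfsgLib.PSolvable.commute_of_coprime_shift (g := c) (y := y) (n := y⁻¹ * (c * y * c⁻¹)) (by group)
      (ih _ hn1 hnR) (by rw [hi]; exact Nat.Coprime.pow_right _ (hp.out.coprime_iff_not_dvd.mpr hcp).symm)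

/-- A `p'`-subgroup cannot centralise `P/N` modulo a normal `p`-group `N` in the Frattini subgroup when
no nontrivial normal `p'`-subgroup exists. -/
theorem eq_bot_of_frattini [Finite G] [hs : Group.IsSolvable G] {p : ℕ} [hp : Fact p.Prime] {N : Subgroup G} [hN : N.Normal]
    (hNp : IsPGroup p N) (hΦ : N ≤ frattini G) {D : Subgroup G} (hD : ¬ p ∣ Nat.card D) (hL : (N ⊔ D).Normal)
    (hO : ∀ K : Subgroup G, K.Normal → ¬ p ∣ Nat.card K → K = ⊥) : D = ⊥ := by
  classical
  set L := N ⊔ D with hLd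
  obtain ⟨a, ha⟩ := hNp.exists_card_eq
  have hDH : GroupB.Hall.IsPiNum ({p}ᶜ : Set ℕ) (Nat.card D) := fun r hr hd he => hD (he ▸ hd)
  have hidx : (D.subgroupOf L).index ∣ Nat.card N := by
    have h1 : L = N ⊔ D := rfl
    have hc : Nat.card L ∣ Nat.card N * Nat.card D := by
      have h3 := (N.subgroupOf L).card_mul_index
      rw [Nat.card_congr (Subgroup.subgroupOfEquivOfLe (le_sup_left : N ≤ L)).toEquiv] at h3
      rw [← h3, show (N.subgroupOf L).index = N.relIndex L from rfl, hLd, Subgroup.relIndex_sup_left]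
      exact mul_dvd_mul_left _ (Subgroup.relIndex_dvd_card _ _)
    have h2 := (D.subgroupOf L).card_mul_index
    rw [Nat.card_congr (Subgroup.subgroupOfEquivOfLe (le_sup_right : D ≤ L)).toEquiv] at h2
    rw [← h2, mul_comm (Nat.card N)] at hc
    exact Nat.dvd_of_mul_dvd_mul_left Nat.card_pos hc
  have hDhall : Cfsg.IsPiHall ({p}ᶜ : Set ℕ) (D.subgroupOf L) := by
    refine ⟨fun r hr hd he => ?_, fun r hr hm hd => ?_⟩
    · rw [Nat.card_congr (Subgroup.subgroupOfEquivOfLe (le_sup_right : D ≤ L)).toEquiv] at hd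
      exact hDH r hr hd he
    · have := hd.trans hidx
      rw [ha] at this
      exact hm ((Nat.prime_dvd_prime_iff_eq hr hp.out).mp (hr.dvd_of_dvd_pow this))
  have htop : N ⊔ Subgroup.normalizer (D : Set G) = ⊤ := by
    refine eq_top_iff.mpr fun g _ => ?_
    haveI := hL
    set D' := D.map (MulAut.conj g).toMonoidHom with hD'
    have hD'L : D' ≤ L := by
      rintro _ ⟨d, hd, rfl⟩
      exact hL.conj_mem d ((le_sup_right : D ≤ L) hd) g
    have hU : GroupB.Hall.IsPiNum ({p}ᶜ : Set ℕ) (Nat.card (D'.subgroupOf L)) := by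
      rw [Nat.card_congr (Subgroup.subgroupOfEquivOfLe hD'L).toEquiv, hD',
        Nat.card_congr (D.equivMapOfInjective _ (MulAut.conj g).injective).toEquiv.symm]
      exact hDH
    obtain ⟨l, hl⟩ := GroupB.Hall.exists_conj_le (GroupB.Hall.piSep_of_isSolvable _) hDhall hU
    have hn : (l : G) * g ∈ Subgroup.normalizer (D : Set G) := by
      refine Subgroup.mem_normalizer_fintype fun d hd => ?_
      have h3 : g * d * g⁻¹ ∈ D' := ⟨d, hd, rfl⟩
      have h4 := hl (Subgroup.mem_map_of_mem _ (show (⟨_, hD'L h3⟩ : L) ∈ D'.subgroupOf L from h3))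
      change (l : G) * (g * d * g⁻¹) * (l : G)⁻¹ ∈ D at h4
      show (l : G) * g * d * ((l : G) * g)⁻¹ ∈ D
      rwa [show (l : G) * g * d * ((l : G) * g)⁻¹ = (l : G) * (g * d * g⁻¹) * (l : G)⁻¹ by group]
    have hLle : L ≤ N ⊔ Subgroup.normalizer (D : Set G) := sup_le_sup_left Subgroup.le_normalizer _
    have := Subgroup.mul_mem _ (inv_mem (hLle l.2)) (Subgroup.mem_sup_right hn)
    rwa [← mul_assoc, inv_mul_cancel, one_mul] at this
  have hDn : Subgroup.normalizer (D : Set G) = ⊤ :=
    frattini_nongenerating (eq_top_iff.mpr (htop.ge.trans (sup_le (hΦ.trans le_sup_right) le_sup_left)))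
  exact hO D (Subgroup.normalizer_eq_top_iff.mp hDn) hD

/-- Huppert: if every maximal subgroup has prime index, the group is supersolvable. -/
theorem isSupersolvable {G : Type u} [Group G] [Finite G] (h : ∀ M : Subgroup G, IsCoatom M → M.index.Prime) :
    Cfsg.IsSupersolvable G := by
  classical
  induction hn : Nat.card G using Nat.strong_induction_on generalizing G with
  | _ n ih =>
  haveI hs : Group.IsSolvable G := Cfsg.Agent.S0580.result h
  rcases subsingleton_or_nontrivial G with hsub | hnt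
  · rw [iff_reach, Subsingleton.elim (⊤ : Subgroup G) ⊥]
    exact Reach.bot
  obtain ⟨N, -, ⟨hNn, hN0⟩, hNmin'⟩ := exists_minimal_le_of_wellFoundedLT
    (fun N : Subgroup G => N.Normal ∧ N ≠ ⊥) ⊤ ⟨inferInstance, top_ne_bot⟩
  haveI := hNn
  have hmin : ∀ K : Subgroup G, K.Normal → K ≤ N → K = ⊥ ∨ K = N := fun K hK hKN =>
    or_iff_not_imp_left.mpr fun hK0 => le_antisymm hKN (hNmin' ⟨hK, hK0⟩ hKN)
  obtain ⟨hab, p, d, hp, hd, hcard⟩ := CfsgLib.PLocal.minNormal_solvable N hN0 hmin
  haveI := Fact.mk hp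
  have hquot : ∀ K : Subgroup G, [K.Normal] → K ≠ ⊥ → Cfsg.IsSupersolvable (G ⧸ K) := by
    intro K _ hK
    refine ih _ ?_ (G := G ⧸ K) (fun M hM => ?_) rfl
    · rw [← hn, K.card_eq_card_quotient_mul_card_subgroup]
      exact lt_mul_of_one_lt_right Nat.card_pos (K.one_lt_card_iff_ne_bot.mpr hK)
    · have hπ := QuotientGroup.mk'_surjective K
      have hc : IsCoatom (M.comap (QuotientGroup.mk' K)) := by
        refine ⟨fun e => hM.1 ?_, fun X hX => ?_⟩
        · rw [← map_comap_eq_self_of_surjective hπ M, e, Subgroup.map_top_of_surjective _ hπ]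
        · have hKX : (QuotientGroup.mk' K).ker ≤ X := (MonoidHom.ker_le_comap _ _).trans hX.le
          have hlt : M < X.map (QuotientGroup.mk' K) := by
            rw [← map_comap_eq_self_of_surjective hπ M]
            refine lt_of_le_of_ne (Subgroup.map_mono hX.le) fun e => hX.ne ?_
            have := congrArg (Subgroup.comap (QuotientGroup.mk' K)) e
            rwa [map_comap_eq_self_of_surjective hπ M, comap_map_eq_self hKX] at this
          rw [← comap_map_eq_self hKX, hM.2 _ hlt, Subgroup.comap_top]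
      have := h _ hc
      rwa [Subgroup.index_comap_of_surjective _ hπ] at this
  have hdone : ∀ K : Subgroup G, [K.Normal] → (Nat.card K).Prime → Cfsg.IsSupersolvable G := by
    intro K hKn hK
    have hK0 : K ≠ ⊥ := fun e => hK.ne_one (by rw [e, Subgroup.card_bot])
    obtain ⟨x, hxK, hx1⟩ := K.bot_or_exists_ne_one.resolve_left hK0
    haveI := Fact.mk hK
    have hzK : zpowers x = K := Subgroup.eq_of_le_of_card_ge (zpowers_le.mpr hxK) (le_of_eq (by
      rw [Nat.card_zpowers]
      exact ((hK.eq_one_or_self_of_dvd _ (Subgroup.orderOf_dvd_natCard K hxK)).resolve_left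
        (mt orderOf_eq_one_iff.mp hx1)).symm))
    exact of_reach_quotient (N := K) (hzK ▸ reach_zpowers (hzK.symm ▸ hKn)) (hquot K hK0)
  by_cases hd1 : d = 1
  · exact hdone N (by rw [hcard, hd1, pow_one]; exact hp)
  by_cases huniq : ∃ K : Subgroup G, K.Normal ∧ K ≠ ⊥ ∧ ¬ N ≤ K
  · obtain ⟨K, hKn, hK0, hNK⟩ := huniq
    obtain ⟨T, hTK, ⟨hTn, hT0⟩, hTmin⟩ := exists_minimal_le_of_wellFoundedLT
      (fun T : Subgroup G => T.Normal ∧ T ≠ ⊥) K ⟨hKn, hK0⟩
    haveI := hTn
    have hdis : N ⊓ T = ⊥ := (hmin _ inferInstance inf_le_left).resolve_right fun e =>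
      hNK ((inf_eq_left.mp e).trans hTK)
    have hπ := QuotientGroup.mk'_surjective N
    have hinj : ∀ a ∈ T, (QuotientGroup.mk' N) a = 1 → a = 1 := fun a ha h1 => by
      have : a ∈ N ⊓ T := ⟨(QuotientGroup.eq_one_iff a).mp h1, ha⟩
      rwa [hdis, Subgroup.mem_bot] at this
    have hcT : Nat.card (T.map (QuotientGroup.mk' N)) = Nat.card T := by
      refine (Nat.card_congr (Equiv.ofBijective (fun a : T => (⟨_, Subgroup.mem_map_of_mem _ a.2⟩ : T.map (QuotientGroup.mk' N))) ⟨?_, ?_⟩)).symm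
      · intro a b e
        have e' := congrArg Subtype.val e
        apply Subtype.ext
        have := hinj _ (mul_mem (inv_mem a.2) b.2) (by rw [map_mul, map_inv]; exact inv_mul_eq_one.mpr e')
        exact inv_mul_eq_one.mp this
      · rintro ⟨_, a, ha, rfl⟩
        exact ⟨⟨a, ha⟩, rfl⟩
    haveI : (T.map (QuotientGroup.mk' N)).Normal := hTn.map _ hπ
    have hTm := card_minimal (hquot N hN0) (T := T.map (QuotientGroup.mk' N)) (by
      intro e
      apply hT0
      rw [← Subgroup.card_eq_one] at e ⊢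
      rwa [hcT] at e) (fun X hX hXT => by
      by_cases hb : X.comap (QuotientGroup.mk' N) ⊓ T = ⊥
      · refine Or.inl ((Subgroup.eq_bot_iff_forall _).mpr fun y hy => ?_)
        obtain ⟨a, ha, rfl⟩ := hXT hy
        have : a ∈ X.comap (QuotientGroup.mk' N) ⊓ T := ⟨hy, ha⟩
        rw [hb, Subgroup.mem_bot] at this
        rw [this, map_one]
      · haveI := hX
        have hle := hTmin ⟨inferInstance, hb⟩ inf_le_right
        refine Or.inr (le_antisymm hXT ?_)
        rintro _ ⟨a, ha, rfl⟩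
        exact (hle ha).1)
    exact hdone T (hcT ▸ hTm)
  push Not at huniq
  exfalso
  have hNp : IsPGroup p N := IsPGroup.of_card hcard
  have hΦ : N ≤ frattini G := by
    rw [CfsgLib.Solvable.le_frattini_iff]
    intro M hM
    by_contra hNM
    have hsup : N ⊔ M = ⊤ := hM.2 _ (lt_of_le_of_ne le_sup_right fun e => hNM (le_sup_left.trans e.ge))
    have hn' : (N ⊓ M).Normal := by
      rw [← Subgroup.normalizer_eq_top_iff, eq_top_iff, ← hsup]
      refine sup_le ?_ ?_
      · exact le_trans (fun a ha => Subgroup.mem_centralizer_iff.mpr fun x hx => hab x hx.1 a ha)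
          (Subgroup.centralizer_le_normalizer _)
      · intro u hu
        refine Subgroup.mem_normalizer_fintype fun x hx => ?_
        exact ⟨hNn.conj_mem x hx.1 u, M.mul_mem (M.mul_mem hu hx.2) (M.inv_mem hu)⟩
    have hbot : N ⊓ M = ⊥ := (hmin _ hn' inf_le_left).resolve_right fun e => hNM (inf_eq_left.mp e)
    have hc : Subgroup.IsComplement' N M := Subgroup.isComplement'_of_disjoint_and_mul_eq_univ
      (disjoint_iff.mpr hbot) (by rw [← Subgroup.normal_mul, hsup, Subgroup.coe_top])
    have := h M hM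
    rw [hc.index_eq_card, hcard] at this
    exact hd1 (this.eq_one_of_pow)
  have hne : (Nat.card G).primeFactors.Nonempty :=
    Nat.nonempty_primeFactors.mpr Finite.one_lt_card
  obtain ⟨q, hqmem, hqmax⟩ : ∃ q, q ∈ (Nat.card G).primeFactors ∧ ∀ r ∈ (Nat.card G).primeFactors, r ≤ q :=
    ⟨_, Finset.max'_mem _ hne, fun r hr => Finset.le_max' _ r hr⟩
  obtain ⟨hq, hqd, -⟩ := Nat.mem_primeFactors.mp hqmem
  haveI := Fact.mk hq
  obtain ⟨K, hK⟩ := CfsgLib.GroupB.OrderType.IsSupersolvable.exists_big_subgroup (hquot N hN0) q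
  set π := QuotientGroup.mk' N with hπd
  have hπ : Function.Surjective π := QuotientGroup.mk'_surjective N
  obtain ⟨P⟩ : Nonempty (Sylow q G) := inferInstance
  have hKq : IsPGroup q K := by
    refine IsPGroup.iff_orderOf.mpr fun x => ?_
    refine ⟨_, Nat.eq_prime_pow_of_unique_prime_dvd (orderOf_pos x).ne' fun {r} hr hrd => ?_⟩
    rw [← Subgroup.orderOf_coe] at hrd
    refine le_antisymm (hqmax r (Nat.mem_primeFactors.mpr ⟨hr, ?_, Nat.card_pos.ne'⟩)) ((hK x).mp x.2 r hr hrd)
    exact hrd.trans ((_root_.orderOf_dvd_natCard _).trans (Subgroup.card_quotient_dvd_card N))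
  have hPK : ((P.mapSurjective hπ : Sylow q (G ⧸ N)) : Subgroup (G ⧸ N)) = K := by
    refine ((P.mapSurjective hπ).3 hKq fun x hx => (hK x).mpr fun r hr hrd => ?_).symm
    obtain ⟨e, he⟩ := IsPGroup.iff_orderOf.mp (P.mapSurjective hπ).2 ⟨x, hx⟩
    rw [Subgroup.orderOf_mk] at he
    rw [he] at hrd
    exact ((Nat.prime_dvd_prime_iff_eq hr hq).mp (hr.dvd_of_dvd_pow hrd)).ge
  have hPN : ((P : Subgroup G) ⊔ N).Normal := by
    have h1 : ((P : Subgroup G).map π).comap π = (P : Subgroup G) ⊔ N := by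
      rw [Subgroup.comap_map_eq, QuotientGroup.ker_mk']
    have hKn : K.Normal := CfsgLib.GroupB.OrderType.normal_of_eq_big hK
    have h2 : (P : Subgroup G).map π = K := hPK
    rw [← h1, h2]
    exact hKn.comap π
  have hPn : (P : Subgroup G).Normal := by
    haveI := hPN
    have h1 : (P : Subgroup G) ≤ (P : Subgroup G) ⊔ N := le_sup_left
    have h2 := Sylow.normalizer_sup_eq_top (P.subtype h1)
    rw [Sylow.coe_subtype, Subgroup.map_subgroupOf_eq_of_le h1] at h2
    have h3 : Subgroup.normalizer ((P : Subgroup G) : Set G) = ⊤ :=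
      frattini_nongenerating (eq_top_iff.mpr (h2.ge.trans (sup_le le_sup_left
        (sup_le (Subgroup.le_normalizer.trans le_sup_left) (hΦ.trans le_sup_right)))))
    exact Subgroup.normalizer_eq_top_iff.mp h3
  have hP0 : (P : Subgroup G) ≠ ⊥ := P.ne_bot_of_dvd_card hqd
  have hNP : N ≤ (P : Subgroup G) := huniq _ hPn hP0
  have hqp : p = q := by
    obtain ⟨e, he⟩ := IsPGroup.iff_card.mp P.2
    have h1 := Subgroup.card_dvd_of_le hNP
    rw [hcard, he] at h1
    exact (Nat.prime_dvd_prime_iff_eq hp hq).mp (hp.dvd_of_dvd_pow ((dvd_pow_self p hd.ne').trans h1))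
  subst hqp
  haveI := hPn
  obtain ⟨C, hC⟩ := Subgroup.exists_right_complement'_of_coprime (N := (P : Subgroup G)) P.card_coprime_index
  have hCp : ¬ p ∣ Nat.card C := by
    rw [← hC.symm.index_eq_card]
    exact P.not_dvd_index
  set R := (P : Subgroup G).map π with hR
  haveI hRn : R.Normal := hPn.map π hπ
  set D := C ⊓ (Subgroup.centralizer (R : Set (G ⧸ N))).comap π with hDd
  have hD : ¬ p ∣ Nat.card D := fun hd' => hCp (hd'.trans (Subgroup.card_dvd_of_le inf_le_left))
  have hL : (N ⊔ D).Normal := by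
    rw [← Subgroup.normalizer_eq_top_iff, eq_top_iff, ← hC.sup_eq_top, sup_le_iff]
    constructor
    · intro x hx
      refine Subgroup.mem_normalizer_fintype fun y hy => ?_
      obtain ⟨m, hm, k, hk, rfl⟩ := Subgroup.mem_sup_of_normal_left.mp hy
      have h1 : x * k * x⁻¹ * k⁻¹ ∈ N := (QuotientGroup.eq_one_iff _).mp (by
        show π _ = 1
        rw [map_mul, map_mul, map_mul, map_inv, map_inv,
          Subgroup.mem_centralizer_iff.mp hk.2 (π x) ⟨x, hx, rfl⟩, mul_inv_cancel_right, mul_inv_cancel])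
      show x * (m * k) * x⁻¹ ∈ N ⊔ D
      rw [show x * (m * k) * x⁻¹ = x * m * x⁻¹ * (x * k * x⁻¹ * k⁻¹) * k by group]
      exact mul_mem (Subgroup.mem_sup_left (mul_mem (hNn.conj_mem m hm x) h1)) (Subgroup.mem_sup_right hk)
    · intro x hx
      refine Subgroup.mem_normalizer_fintype fun y hy => ?_
      obtain ⟨m, hm, k, hk, rfl⟩ := Subgroup.mem_sup_of_normal_left.mp hy
      show x * (m * k) * x⁻¹ ∈ N ⊔ D
      rw [← conj_mul]
      refine mul_mem (Subgroup.mem_sup_left (hNn.conj_mem m hm x)) (Subgroup.mem_sup_right ⟨?_, ?_⟩)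
      · exact C.mul_mem (C.mul_mem hx hk.1) (C.inv_mem hx)
      · show π (x * k * x⁻¹) ∈ Subgroup.centralizer (R : Set (G ⧸ N))
        rw [map_mul, map_mul, map_inv]
        exact (inferInstance : (Subgroup.centralizer (R : Set (G ⧸ N))).Normal).conj_mem _ hk.2 (π x)
  have hO : ∀ K : Subgroup G, K.Normal → ¬ p ∣ Nat.card K → K = ⊥ := fun K' hK' hd' => by
    by_contra h0
    exact hd' ((dvd_pow_self p hd.ne').trans (hcard ▸ Subgroup.card_dvd_of_le (huniq K' hK' h0)))
  have hDb : D = ⊥ := eq_bot_of_frattini hNp hΦ hD hL hO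
  have hRp : IsPGroup p R := (P.2).map π
  have hord : ∀ u ∈ C, ¬ p ∣ orderOf u := fun u hu h1 => hCp (h1.trans (Subgroup.orderOf_dvd_natCard C hu))
  have hkill : ∀ c ∈ C, ((∃ u v : G ⧸ N, π c = u * v * u⁻¹ * v⁻¹) ∨ ∃ u : G ⧸ N, π c = u ^ (p - 1) ∧ ¬ p ∣ orderOf u) → c = 1 := by
    intro c hc hcc
    have : c ∈ D := ⟨hc, Subgroup.mem_centralizer_iff.mpr fun y hy =>
      (commute_normal (hquot N hN0) hRp (fun h1 => hord c hc (h1.trans (orderOf_map_dvd π c))) hcc hy).symm⟩
    rwa [hDb, Subgroup.mem_bot] at this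
  haveI : Nontrivial N := N.nontrivial_iff_ne_bot.mpr hN0
  have hcen : ∀ x ∈ (P : Subgroup G), ∀ a ∈ N, x * a = a * x := by
    haveI : Group.IsNilpotent (P : Subgroup G) := P.2.isNilpotent
    haveI : (N.subgroupOf (P : Subgroup G)).Normal := hNn.subgroupOf _
    have h1 := CfsgLib.Solvable.Basics.inf_center_ne_bot (N.subgroupOf (P : Subgroup G)) (fun e => hN0 (by
      rw [← Subgroup.map_subgroupOf_eq_of_le hNP, e, Subgroup.map_bot]))
    set Z := N ⊓ Subgroup.centralizer ((P : Subgroup G) : Set G) with hZ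
    have hZN : Z = N := by
      refine (hmin Z inferInstance inf_le_left).resolve_left fun e => h1 ((Subgroup.eq_bot_iff_forall _).mpr fun z hz => ?_)
      have : (z : G) ∈ Z := ⟨hz.1, Subgroup.mem_centralizer_iff.mpr fun y hy =>
        congrArg Subtype.val (Subgroup.mem_center_iff.mp hz.2 ⟨y, hy⟩)⟩
      rw [e, Subgroup.mem_bot] at this
      exact Subtype.ext this
    exact fun x hx a ha => Subgroup.mem_centralizer_iff.mp (hZN.ge ha).2 x hx
  let φ : G →* MulAut N := MulAut.conjNormal
  have hker : ∀ x ∈ (P : Subgroup G), φ x = 1 := fun x hx => by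
    ext a
    rw [MulAut.one_apply]
    show x * a * x⁻¹ = a
    rw [hcen x hx a a.2, mul_inv_cancel_right]
  have hdec : ∀ g : G, ∃ k ∈ C, φ g = φ k := by
    intro g
    obtain ⟨x, hx, k, hk, rfl⟩ := Subgroup.mem_sup_of_normal_left.mp (hC.sup_eq_top ▸ Subgroup.mem_top g)
    exact ⟨k, hk, by rw [map_mul, hker x hx, one_mul]⟩
  have habel : ∀ g h : G, φ g * φ h = φ h * φ g := by
    intro g g'
    obtain ⟨a, ha, ea⟩ := hdec g
    obtain ⟨b, hb, eb⟩ := hdec g'
    have := hkill _ (mul_mem (mul_mem (mul_mem ha hb) (inv_mem ha)) (inv_mem hb))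
      (Or.inl ⟨π a, π b, by simp only [map_mul, map_inv]⟩)
    rw [ea, eb, ← map_mul, ← map_mul]
    exact congrArg φ (eq_of_mul_inv_eq_one (by rw [mul_inv_rev]; simpa [mul_assoc] using this))
  have hexp : ∀ g : G, φ g ^ (p - 1) = 1 := by
    intro g
    obtain ⟨a, ha, ea⟩ := hdec g
    have := hkill _ (pow_mem ha (p - 1)) (Or.inr ⟨π a, by rw [map_pow], fun h1 => hord a ha (h1.trans (orderOf_map_dvd π a))⟩)
    rw [ea, ← map_pow, this, map_one]
  have hpN : ∀ a ∈ N, a ^ p = 1 := by
    let E : Subgroup G :=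
      { carrier := {a | a ∈ N ∧ a ^ p = 1}
        one_mem' := ⟨one_mem _, one_pow _⟩
        mul_mem' := fun {a b} ha hb => ⟨mul_mem ha.1 hb.1, by
          rw [(show Commute a b from hab a ha.1 b hb.1).mul_pow, ha.2, hb.2, one_mul]⟩
        inv_mem' := fun {a} ha => ⟨inv_mem ha.1, by rw [inv_pow, ha.2, inv_one]⟩ }
    have hEn : E.Normal := ⟨fun a ha g => ⟨hNn.conj_mem a ha.1 g, by rw [conj_pow, ha.2, mul_one, mul_inv_cancel]⟩⟩
    obtain ⟨z, hz⟩ := exists_prime_orderOf_dvd_card' (G := N) p (hcard ▸ dvd_pow_self p hd.ne')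
    rcases hmin E hEn (fun a ha => ha.1) with h1 | h1
    · have : (z : G) ∈ E := ⟨z.2, by rw [← SubgroupClass.coe_pow, ← hz, pow_orderOf_eq_one, OneMemClass.coe_one]⟩
      rw [h1, Subgroup.mem_bot] at this
      rw [show z = 1 from Subtype.ext this, orderOf_one] at hz
      exact absurd hz.symm hp.ne_one
    · exact fun a ha => (h1.ge ha).2
  have := card_eq_prime hN0 hmin hab hpN habel hexp
  rw [hcard] at this
  exact hd1 (Nat.pow_right_injective hp.two_le (this.trans (pow_one p).symm))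

end CfsgLib.Supersolvable.Huppert
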