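import Cfsg.Agent.Lib.Supersolvable.Huppert
import Cfsg.Agent.Lib.CentralPElements

/-! Groups all whose subgroups satisfy the converse of Lagrange's theorem. -/
set_option autoImplicit false
open Cfsg

namespace CfsgLib.Supersolvable.Lagrange
open Subgroup

universe u

theorem of_equiv {G H : Type u} [Group G] [Group H] (e : G ≃* H) (h : HasSubgroupOfEveryOrder G) :
    HasSubgroupOfEveryOrder H := fun d hd => by
  obtain ⟨K, hK⟩ := h d (Nat.card_congr e.toEquiv ▸ hd)
  exact ⟨K.map e.toMonoidHom, by rw [← Nat.card_congr (K.equivMapOfInjective _ e.injective).toEquiv]; exact hK⟩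

theorem hered {G : Type u} [Group G] (h : ∀ H : Subgroup G, HasSubgroupOfEveryOrder H) {A : Type u} [Group A]
    (f : A →* G) (hf : Function.Injective f) (K : Subgroup A) : HasSubgroupOfEveryOrder K :=
  of_equiv (K.equivMapOfInjective f hf).symm (h _)

/-- A Sylow subgroup for the largest prime is normal. -/
theorem sylow_normal {G : Type u} [Group G] [Finite G] (h : ∀ H : Subgroup G, HasSubgroupOfEveryOrder H) (p : ℕ)
    [hp : Fact p.Prime] (hmax : ∀ q : ℕ, q.Prime → q ∣ Nat.card G → q ≤ p) (P : Sylow p G) :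
    (P : Subgroup G).Normal := by
  induction hn : Nat.card G using Nat.strong_induction_on generalizing G with
  | _ n ih =>
  by_cases hpg : IsPGroup p G
  · have : (P : Subgroup G) = ⊤ :=
      (P.3 (IsPGroup.to_subgroup hpg ⊤) le_top).symm
    rw [this]
    infer_instance
  have hone : Nat.card G ≠ 1 := fun e => hpg (IsPGroup.of_card (n := 0) (by rw [e, pow_zero]))
  set q := (Nat.card G).minFac with hq
  have hqp : q.Prime := Nat.minFac_prime hone
  have hqd : q ∣ Nat.card G := Nat.minFac_dvd _
  haveI := Fact.mk hqp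
  have hne : q ≠ p := by
    intro e
    refine hpg (IsPGroup.iff_orderOf.mpr fun g => ⟨_, Nat.eq_prime_pow_of_unique_prime_dvd (orderOf_pos g).ne'
      fun {r} hr hrd => le_antisymm (hmax r hr (hrd.trans (_root_.orderOf_dvd_natCard g))) ?_⟩)
    rw [← e]
    exact Nat.minFac_le_of_dvd hr.two_le (hrd.trans (_root_.orderOf_dvd_natCard g))
  obtain ⟨M, hM⟩ := of_equiv Subgroup.topEquiv (h ⊤) (Nat.card G / q) (Nat.div_dvd_of_dvd hqd)
  have hidx : M.index = q := by
    have h2 := M.card_mul_index
    rw [hM] at h2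
    exact Nat.eq_of_mul_eq_mul_left (Nat.div_pos (Nat.le_of_dvd Nat.card_pos hqd) hqp.pos)
      (h2.trans (Nat.div_mul_cancel hqd).symm)
  haveI hMn : M.Normal := Subgroup.normal_of_index_eq_minFac_card (hidx.trans hq)
  have hPM : (P : Subgroup G) ≤ M := by
    intro x hx
    refine (QuotientGroup.eq_one_iff x).mp (orderOf_eq_one_iff.mp ?_)
    obtain ⟨k, hk⟩ := IsPGroup.iff_orderOf.mp P.2 ⟨x, hx⟩
    rw [Subgroup.orderOf_mk] at hk
    refine Nat.eq_one_of_dvd_coprimes (((Nat.coprime_primes hp.out hqp).mpr (Ne.symm hne)).pow_left k)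
      ((orderOf_map_dvd (QuotientGroup.mk' M) x).trans hk.dvd) ?_
    rw [← hidx, Subgroup.index_eq_card]
    exact _root_.orderOf_dvd_natCard _
  have hlt : Nat.card M < n := by
    rw [← hn, ← M.card_mul_index, hidx]
    exact lt_mul_of_one_lt_right Nat.card_pos hqp.one_lt
  have h1 := ih _ hlt (G := M) (hered h M.subtype M.subtype_injective)
    (fun r hr hd => hmax r hr (hd.trans M.card_subgroup_dvd_card)) (P.subtype hPM) rfl
  haveI : ((P.subtype hPM : Sylow p M) : Subgroup M).Characteristic := Sylow.characteristic_of_normal _ h1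
  have h2 : (((P.subtype hPM : Sylow p M) : Subgroup M).map M.subtype).Normal := inferInstance
  rwa [Sylow.coe_subtype, Subgroup.map_subgroupOf_eq_of_le hPM] at h2

/-- Every maximal subgroup has prime index. -/
theorem index_prime {G : Type u} [Group G] [Finite G] (h : ∀ H : Subgroup G, HasSubgroupOfEveryOrder H)
    {M : Subgroup G} (hM : IsCoatom M) : M.index.Prime := by
  induction hn : Nat.card G using Nat.strong_induction_on generalizing G with
  | _ n ih =>
  have hone : Nat.card G ≠ 1 := fun e => hM.1 (by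
    rw [Subgroup.eq_top_iff']
    intro g
    haveI := (Nat.card_eq_one_iff_unique.mp e).1
    rw [Subsingleton.elim g 1]; exact one_mem _)
  obtain ⟨p, hpmem, hpmax⟩ : ∃ q, q ∈ (Nat.card G).primeFactors ∧ ∀ r ∈ (Nat.card G).primeFactors, r ≤ q :=
    have hne := Nat.nonempty_primeFactors.mpr (lt_of_le_of_ne Nat.card_pos (Ne.symm hone))
    ⟨_, Finset.max'_mem _ hne, fun r hr => Finset.le_max' _ r hr⟩
  obtain ⟨hp, hpd, -⟩ := Nat.mem_primeFactors.mp hpmem
  haveI := Fact.mk hp
  obtain ⟨P⟩ : Nonempty (Sylow p G) := inferInstance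
  haveI hPn : (P : Subgroup G).Normal := sylow_normal h p
    (fun q hq hd => hpmax q (Nat.mem_primeFactors.mpr ⟨hq, hd, Nat.card_pos.ne'⟩)) P
  have hP0 : (P : Subgroup G) ≠ ⊥ := P.ne_bot_of_dvd_card hpd
  by_cases hPM : (P : Subgroup G) ≤ M
  · obtain ⟨C, hC⟩ := Subgroup.exists_right_complement'_of_coprime (N := (P : Subgroup G)) P.card_coprime_index
    set π := QuotientGroup.mk' (P : Subgroup G) with hπd
    have hπ : Function.Surjective π := QuotientGroup.mk'_surjective _
    have hker : π.ker ≤ M := by rw [QuotientGroup.ker_mk']; exact hPM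
    let f := hC.symm.QuotientMulEquiv
    have hc : IsCoatom (M.map π) := by
      refine ⟨fun e => hM.1 ?_, fun X hX => ?_⟩
      · rw [← comap_map_eq_self hker, e, Subgroup.comap_top]
      · have hlt : M < X.comap π := by
          refine lt_of_le_of_ne (Subgroup.map_le_iff_le_comap.mp hX.le) fun e => hX.ne ?_
          rw [e, map_comap_eq_self_of_surjective hπ]
        rw [← map_comap_eq_self_of_surjective hπ X, hM.2 _ hlt, Subgroup.map_top_of_surjective _ hπ]
    have hlt : Nat.card (G ⧸ (P : Subgroup G)) < n := by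
      rw [← hn, (P : Subgroup G).card_eq_card_quotient_mul_card_subgroup]
      exact lt_mul_of_one_lt_right Nat.card_pos ((P : Subgroup G).one_lt_card_iff_ne_bot.mpr hP0)
    have h1 := ih _ hlt (G := G ⧸ (P : Subgroup G))
      (hered h (C.subtype.comp f.toMonoidHom) (C.subtype_injective.comp f.injective)) hc rfl
    rwa [Subgroup.index_map_eq M hπ hker] at h1
  · set T := M ⊓ (P : Subgroup G) with hT
    have hsup : (P : Subgroup G) ⊔ M = ⊤ := hM.2 _ (lt_of_le_of_ne le_sup_right fun e => hPM (le_sup_left.trans e.ge))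
    have hTn : T.Normal := by
      rw [← Subgroup.normalizer_eq_top_iff]
      refine hM.2 _ (lt_of_le_of_ne ?_ fun e => ?_)
      · intro u hu
        refine Subgroup.mem_normalizer_fintype fun x hx => ?_
        exact ⟨M.mul_mem (M.mul_mem hu hx.1) (M.inv_mem hu), hPn.conj_mem x hx.2 u⟩
      · haveI : Group.IsNilpotent (P : Subgroup G) := P.2.isNilpotent
        have hlt : T.subgroupOf (P : Subgroup G) < ⊤ := lt_top_iff_ne_top.mpr fun e1 => hPM (by
          intro x hx
          have : (⟨x, hx⟩ : (P : Subgroup G)) ∈ T.subgroupOf (P : Subgroup G) := e1 ▸ Subgroup.mem_top _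
          exact this.1)
        obtain ⟨x, hx, hxT⟩ := SetLike.exists_of_lt (normalizerCondition_of_isNilpotent _ hlt)
        have hxn : (x : G) ∈ Subgroup.normalizer (T : Set G) := by
          refine Subgroup.mem_normalizer_fintype fun y hy => ?_
          exact (Subgroup.mem_normalizer_iff.mp hx ⟨y, hy.2⟩).mp hy
        rw [← e] at hxn
        exact hxT (⟨hxn, x.2⟩ : (x : G) ∈ T)
    haveI := hTn
    obtain ⟨K, -, hK, hKmin⟩ := exists_minimal_le_of_wellFoundedLT (fun K : Subgroup G => K ⊔ T = ⊤) ⊤ (top_sup_eq _)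
    set KP := (P : Subgroup G).subgroupOf K with hKP
    have hidxP : ¬ p ∣ KP.index := fun hd => P.not_dvd_index (hd.trans (Subgroup.relIndex_dvd_index_of_normal _ _))
    have hpK : p ∣ Nat.card K := by
      by_contra hd
      have hd2 : Nat.card (G ⧸ T) ∣ Nat.card K := by
        rw [← Subgroup.index_eq_card, ← Subgroup.relIndex_top_right T, ← hK, Subgroup.relIndex_sup_right]
        exact Subgroup.relIndex_dvd_card _ _
      have hPT : (P : Subgroup G) ≤ T := fun x hx => by
        refine (QuotientGroup.eq_one_iff x).mp (orderOf_eq_one_iff.mp ?_)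
        obtain ⟨k, hk⟩ := IsPGroup.iff_orderOf.mp P.2 ⟨x, hx⟩
        rw [Subgroup.orderOf_mk] at hk
        exact Nat.eq_one_of_dvd_coprimes ((hp.coprime_iff_not_dvd.mpr hd).pow_left k)
          ((orderOf_map_dvd (QuotientGroup.mk' T) x).trans hk.dvd) ((_root_.orderOf_dvd_natCard _).trans hd2)
      exact hPM (hPT.trans inf_le_left)
    obtain ⟨L, hL⟩ := h K (Nat.card K / p) (Nat.div_dvd_of_dvd hpK)
    have hLi : L.index = p := by
      have h2 := L.card_mul_index
      rw [hL] at h2
      exact Nat.eq_of_mul_eq_mul_left (Nat.div_pos (Nat.le_of_dvd Nat.card_pos hpK) hp.pos)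
        (h2.trans (Nat.div_mul_cancel hpK).symm)
    have hLK : KP ⊔ L = ⊤ := by
      rw [← Subgroup.index_eq_one]
      refine Nat.eq_one_of_dvd_coprimes (hp.coprime_iff_not_dvd.mpr hidxP) ?_ (Subgroup.index_dvd_of_le le_sup_left)
      exact hLi ▸ Subgroup.index_dvd_of_le le_sup_right
    set R := KP ⊓ L with hR
    have hRidx : R.relIndex KP ∣ p := by
      have h4 : R.relIndex KP = L.relIndex KP := by rw [hR, inf_comm, Subgroup.inf_relIndex_right]
      rw [h4, ← hLi, ← Subgroup.relIndex_top_right L, ← hLK, sup_comm KP L, CfsgLib.CentralPElements.relIndex_sup_of_normal]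
    haveI hRn : R.Normal := by
      rw [← Subgroup.normalizer_eq_top_iff, eq_top_iff, ← hLK]
      refine sup_le ?_ ?_
      · have hpKP : IsPGroup p KP := P.2.comap_subtype
        rcases (Nat.dvd_prime hp).mp hRidx with h1 | h1
        · rw [Subgroup.relIndex_eq_one] at h1
          rw [show R = KP from le_antisymm inf_le_left h1]
          exact Subgroup.le_normalizer
        · obtain ⟨k, hk⟩ := hpKP.exists_card_eq
          have hn' : (R.subgroupOf KP).Normal := by
            refine Subgroup.normal_of_index_eq_minFac_card ?_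
            show R.relIndex KP = _
            rw [h1, hk]
            rcases Nat.eq_zero_or_pos k with rfl | hk0
            · exfalso
              rw [pow_zero] at hk
              have := Subgroup.relIndex_dvd_card R KP
              rw [h1, hk, Nat.dvd_one] at this
              exact hp.ne_one this
            · rw [Nat.Prime.pow_minFac hp hk0.ne']
          exact Subgroup.le_normalizer_of_normal_subgroupOf inf_le_left
      · intro u hu
        refine Subgroup.mem_normalizer_fintype fun x hx => ?_
        exact ⟨(inferInstance : KP.Normal).conj_mem x hx.1 u, L.mul_mem (L.mul_mem hu hx.2) (L.inv_mem hu)⟩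
    set X := R.map K.subtype ⊔ T with hX
    haveI hXn : X.Normal := by
      rw [← Subgroup.normalizer_eq_top_iff, eq_top_iff, ← hK]
      refine sup_le ?_ (le_sup_right.trans Subgroup.le_normalizer)
      intro u hu
      refine Subgroup.mem_normalizer_fintype fun y hy => ?_
      obtain ⟨a, ha, b, hb, rfl⟩ := Subgroup.mem_sup_of_normal_right.mp hy
      obtain ⟨z, hz, rfl⟩ := ha
      show u * ((z : G) * b) * u⁻¹ ∈ X
      rw [← conj_mul]
      exact mul_mem (Subgroup.mem_sup_left ⟨⟨u, hu⟩ * z * ⟨u, hu⟩⁻¹, hRn.conj_mem z hz _, rfl⟩)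
        (Subgroup.mem_sup_right (hTn.conj_mem b hb u))
    have hXP : X ≤ (P : Subgroup G) := sup_le (by rintro _ ⟨z, hz, rfl⟩; exact hz.1) inf_le_right
    have hXT : X = T := by
      by_contra hne
      have hXM : ¬ X ≤ M := fun h1 => hne (le_antisymm (le_inf h1 hXP) le_sup_right)
      have hXtop : X ⊔ M = ⊤ := hM.2 _ (lt_of_le_of_ne le_sup_right fun e => hXM (le_sup_left.trans e.ge))
      have hXeq : (P : Subgroup G) ≤ X := by
        intro x hx
        obtain ⟨a, ha, b, hb, rfl⟩ := Subgroup.mem_sup_of_normal_left.mp (hXtop.symm ▸ Subgroup.mem_top x)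
        refine mul_mem ha (le_sup_right (a := R.map K.subtype) ⟨hb, ?_⟩)
        have := mul_mem (inv_mem (hXP ha)) hx
        rwa [inv_mul_cancel_left] at this
      have hLT : L.map K.subtype ⊔ T = ⊤ := by
        have hPle : (P : Subgroup G) ≤ L.map K.subtype ⊔ T :=
          hXeq.trans (sup_le ((Subgroup.map_mono inf_le_right).trans le_sup_left) le_sup_right)
        refine eq_top_iff.mpr (hK.ge.trans (sup_le ?_ le_sup_right))
        intro u hu
        obtain ⟨a, ha, b, hb, e⟩ := Subgroup.mem_sup_of_normal_left.mp (hLK.symm ▸ Subgroup.mem_top (⟨u, hu⟩ : K))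
        rw [show u = (a : G) * (b : G) from (congrArg Subtype.val e).symm]
        exact mul_mem (hPle ha) (Subgroup.mem_sup_left ⟨b, hb, rfl⟩)
      have hKL := hKmin hLT (Subgroup.map_subtype_le L)
      have : L = ⊤ := Subgroup.eq_top_iff' _ |>.mpr fun u => by
        obtain ⟨z, hz, e⟩ := hKL u.2
        exact (Subtype.ext e : z = u) ▸ hz
      rw [this, Subgroup.index_top] at hLi
      exact hp.ne_one hLi.symm
    have hRT : R ≤ T.subgroupOf K := fun z hz => by
      show (z : G) ∈ T
      rw [← hXT]
      exact Subgroup.mem_sup_left ⟨z, hz, rfl⟩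
    have e1 : M.index = T.relIndex (P : Subgroup G) := by
      rw [← Subgroup.relIndex_top_right M, ← hsup, sup_comm, hT, Subgroup.inf_relIndex_right]
      exact CfsgLib.CentralPElements.relIndex_sup_of_normal M (P : Subgroup G)
    have e2 : T.relIndex (P : Subgroup G) ∣ p := by
      have h6 : (T.subgroupOf K).relIndex KP = T.relIndex (P : Subgroup G) := by
        rw [hKP, Subgroup.subgroupOf, Subgroup.subgroupOf, Subgroup.relIndex_comap, Subgroup.map_comap_eq, Subgroup.range_subtype]
        have hKPT : (K ⊓ (P : Subgroup G)) ⊔ T = (P : Subgroup G) := by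
          refine le_antisymm (sup_le inf_le_right inf_le_right) fun x hx => ?_
          obtain ⟨a, ha, b, hb, rfl⟩ := Subgroup.mem_sup_of_normal_right.mp (hK.symm ▸ Subgroup.mem_top x)
          refine mul_mem (Subgroup.mem_sup_left ⟨ha, ?_⟩) (Subgroup.mem_sup_right hb)
          have := mul_mem hx (inv_mem hb.2)
          rwa [mul_inv_cancel_right] at this
        conv_rhs => rw [← hKPT, Subgroup.relIndex_sup_right]
      rw [← h6]
      exact (Subgroup.relIndex_dvd_of_le_left KP hRT).trans hRidx
    rw [← e1] at e2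
    exact ((Nat.dvd_prime hp).mp e2).resolve_left (fun e => hM.1 (Subgroup.index_eq_one.mp e)) ▸ hp

end CfsgLib.Supersolvable.Lagrange
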