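import Cfsg.Agent.Lib.Supersolvable.Reach

/-! A maximal subgroup missing a cyclic normal subgroup has prime index. -/
set_option autoImplicit false

namespace CfsgLib.Supersolvable
open Subgroup

variable {G : Type*} [Group G]

theorem normal_of_le_zpowers {g : G} (hN : (zpowers g).Normal) {L : Subgroup G} (hL : L ≤ zpowers g) : L.Normal := by
  refine ⟨fun l hl b => ?_⟩
  obtain ⟨k, rfl⟩ := hL hl
  obtain ⟨j, hj⟩ := hN.conj_mem g (mem_zpowers g) b
  have hj' : g ^ j = b * g * b⁻¹ := hj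
  rw [show b * g ^ k * b⁻¹ = (g ^ k) ^ j by rw [← conj_zpow, ← hj', ← zpow_mul, ← zpow_mul, mul_comm]]
  exact L.zpow_mem hl j

theorem index_prime [Finite G] {M : Subgroup G} (hM : IsCoatom M) {g : G} (hN : (zpowers g).Normal) (hg : g ∉ M) :
    M.index.Prime := by
  classical
  set N := zpowers g with hNd
  have hNM : N ⊔ M = ⊤ := hM.2 _ (lt_of_le_of_ne le_sup_right (fun h => hg ((le_sup_left.trans h.ge : N ≤ M) (mem_zpowers g))))
  let f : (↥N ⧸ M.subgroupOf N) → G ⧸ M := Quotient.map' (fun x : N => (x : G)) (fun a b h => by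
    rw [QuotientGroup.leftRel_apply] at h ⊢
    exact h)
  have hbij : Function.Bijective f := by
    constructor
    · intro a b h
      induction a using QuotientGroup.induction_on with | H a => ?_
      induction b using QuotientGroup.induction_on with | H b => ?_
      exact QuotientGroup.eq.2 (mem_subgroupOf.2 (QuotientGroup.eq.1 (h : (QuotientGroup.mk (a : G) : G ⧸ M) = QuotientGroup.mk (b : G))))
    · intro z
      induction z using QuotientGroup.induction_on with | H x => ?_
      obtain ⟨n, hn, m, hm, rfl⟩ := mem_sup_of_normal_left.1 (hNM.ge (mem_top x))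
      exact ⟨QuotientGroup.mk ⟨n, hn⟩, QuotientGroup.eq.2 (by simpa using hm)⟩
  rw [index, ← Nat.card_congr (Equiv.ofBijective f hbij)]
  haveI : (M.subgroupOf N).Normal := by
    haveI : IsMulCommutative N := inferInstance
    exact Subgroup.normal_of_comm _
  set y : ↥N ⧸ M.subgroupOf N := QuotientGroup.mk ⟨g, mem_zpowers g⟩ with hy
  have hgen : ∀ z, z ∈ zpowers y := by
    intro z
    induction z using QuotientGroup.induction_on with | H x => ?_
    obtain ⟨k, hk⟩ := (x.2 : (x : G) ∈ zpowers g)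
    exact ⟨k, by show y ^ k = _; rw [hy, ← QuotientGroup.mk_zpow]; exact congrArg QuotientGroup.mk (Subtype.ext hk)⟩
  rw [← orderOf_eq_card_of_forall_mem_zpowers hgen]
  have hy1 : orderOf y ≠ 1 := by
    rw [ne_eq, orderOf_eq_one_iff, hy, QuotientGroup.eq_one_iff, mem_subgroupOf]
    exact hg
  obtain ⟨r, hr, hrd⟩ := Nat.exists_prime_and_dvd hy1
  by_contra hnp
  have hlt : r < orderOf y := lt_of_le_of_ne (Nat.le_of_dvd (orderOf_pos y) hrd) (fun h => hnp (h ▸ hr))
  set L := zpowers (g ^ r) ⊔ (N ⊓ M) with hL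
  have hLN : L ≤ N := sup_le (zpowers_le.2 (pow_mem (mem_zpowers g) r)) inf_le_left
  haveI := normal_of_le_zpowers hN hLN
  have hgr : g ^ r ∉ M := fun h => by
    have : y ^ r = 1 := by
      rw [hy, ← QuotientGroup.mk_pow, QuotientGroup.eq_one_iff, mem_subgroupOf]; simpa using h
    exact absurd (Nat.le_of_dvd hr.pos (orderOf_dvd_of_pow_eq_one this)) (by omega)
  have hLM : L ⊔ M = ⊤ := hM.2 _ (lt_of_le_of_ne le_sup_right (fun h => hgr
    ((le_sup_left.trans h.ge : L ≤ M) (mem_sup_left (mem_zpowers _)))))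
  obtain ⟨l, hl, m, hm, e⟩ := mem_sup_of_normal_left.1 (hLM.ge (mem_top g))
  have hgL : g ∈ L := by
    have hmN : m ∈ N := by
      have : m = l⁻¹ * g := by rw [← e]; simp
      rw [this]; exact N.mul_mem (N.inv_mem (hLN hl)) (mem_zpowers g)
    rw [← e]; exact L.mul_mem hl (mem_sup_right ⟨hmN, hm⟩)
  have hle : L.subgroupOf N ≤ (zpowers (y ^ r)).comap (QuotientGroup.mk' _) := by
    rintro ⟨x, hx⟩ (hxL : x ∈ L)
    have : L ≤ ((zpowers (y ^ r)).comap (QuotientGroup.mk' (M.subgroupOf N))).map N.subtype := by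
      refine sup_le (zpowers_le.2 ⟨⟨g, mem_zpowers g⟩ ^ r, ?_, by simp⟩) ?_
      · simp only [hy, SetLike.mem_coe, Subgroup.mem_comap, QuotientGroup.mk'_apply]
        exact mem_zpowers _
      · rintro z ⟨hzN, hzM⟩
        refine ⟨⟨z, hzN⟩, ?_, rfl⟩
        show QuotientGroup.mk ⟨z, hzN⟩ ∈ zpowers (y ^ r)
        rw [(QuotientGroup.eq_one_iff _).2 (mem_subgroupOf.2 hzM)]
        exact one_mem _
    obtain ⟨w, hw, hwx⟩ := this hxL
    exact (Subtype.ext hwx : w = ⟨x, hx⟩) ▸ hw
  have h1 : y ∈ zpowers (y ^ r) := hle (show (⟨g, mem_zpowers g⟩ : N) ∈ L.subgroupOf N from hgL)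
  have h2 := Nat.le_of_dvd (Nat.div_pos (Nat.le_of_dvd (orderOf_pos y) hrd) hr.pos)
    (show orderOf y ∣ orderOf y / r by
      rw [← orderOf_pow_of_dvd hr.ne_zero hrd, ← Nat.card_zpowers, ← Nat.card_zpowers]
      exact card_dvd_of_le (zpowers_le.2 h1))
  exact absurd (Nat.div_lt_self (orderOf_pos y) hr.one_lt) (by omega)

end CfsgLib.Supersolvable
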