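import Mathlib
import Cfsg.Agent.Lib.Supersolvable.Maximal

/-! Normal subgroups of prime order and quotients of supersolvable groups. -/
set_option autoImplicit false
open Cfsg

namespace CfsgLib.Supersolvable
open Subgroup

variable {G : Type*} [Group G]

theorem Reach.map {H : Type*} [Group H] (f : G →* H) (hf : Function.Surjective f) {T : Subgroup G} (h : Reach T) :
    Reach (T.map f) := by
  induction h with
  | bot => rw [Subgroup.map_bot]; exact Reach.bot
  | @step M g hM hn ih =>
    rw [Subgroup.map_sup, MonoidHom.map_zpowers]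
    refine Reach.step _ ih ?_
    rw [← MonoidHom.map_zpowers, ← Subgroup.map_sup]
    exact hn.map f hf

theorem isSupersolvable_of_surjective {H : Type*} [Group H] (f : G →* H) (hf : Function.Surjective f)
    (h : IsSupersolvable G) : IsSupersolvable H := by
  rw [iff_reach] at h ⊢
  have := h.map f hf
  rwa [Subgroup.map_top_of_surjective f hf] at this

theorem exists_prime_normal [Finite G] {T : Subgroup G} (h : Reach T) (hT : T ≠ ⊥) :
    ∃ x : G, (orderOf x).Prime ∧ (zpowers x).Normal := by
  induction h with
  | bot => exact absurd rfl hT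
  | @step M g hM hn ih =>
    by_cases hM0 : M = ⊥
    · subst hM0
      rw [bot_sup_eq] at hT hn
      have hg : g ≠ 1 := fun e => hT (by simp [e])
      obtain ⟨r, hr, hrd⟩ := Nat.exists_prime_and_dvd (mt orderOf_eq_one_iff.mp hg)
      refine ⟨g ^ (orderOf g / r), ?_, normal_of_le_zpowers hn (zpowers_le.mpr (pow_mem (mem_zpowers g) _))⟩
      have hdiv : orderOf g / r ∣ orderOf g := Nat.div_dvd_of_dvd hrd
      have hne : orderOf g / r ≠ 0 := (Nat.div_pos (Nat.le_of_dvd (orderOf_pos g) hrd) hr.pos).ne'
      rw [orderOf_pow_of_dvd hne hdiv, Nat.div_div_self hrd (orderOf_pos g).ne']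
      exact hr
    · exact ih hM0

theorem reach_zpowers {x : G} (h : (zpowers x).Normal) : Reach (zpowers x) := by
  have h' : ((⊥ : Subgroup G) ⊔ zpowers x).Normal := by rwa [bot_sup_eq]
  simpa using Reach.step x Reach.bot h'

theorem card_quotient_zpowers [Finite G] {x : G} [(zpowers x).Normal] :
    Nat.card G = Nat.card (G ⧸ zpowers x) * orderOf x := by
  rw [← Nat.card_zpowers]
  exact card_eq_card_quotient_mul_card_subgroup _

end CfsgLib.Supersolvable
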