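import Cfsg.Agent.S0527
import Cfsg.Agent.Lib.Supersolvable.Huppert
import Cfsg.Agent.Lib.Supersolvable.Prime

/-! A supersolvable group has a chief chain with non-increasing primes. -/

set_option autoImplicit false
set_option linter.style.haveILetI false

namespace CfsgLib.Supersolvable.Tower

open Cfsg

universe u

theorem sylow_normal {G : Type u} [Group G] [Finite G] (h : ∀ M : Subgroup G, IsCoatom M → M.index.Prime) {p : ℕ}
    [hpp : Fact p.Prime] (hmax : ∀ q : ℕ, q.Prime → q ∣ Nat.card G → q ≤ p) (P : Sylow p G) :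
    (P : Subgroup G).Normal := by
  rw [← Subgroup.normalizer_eq_top_iff]
  by_contra hN
  obtain ⟨M, hM, hNM⟩ := (eq_top_or_exists_le_coatom _).resolve_left hN
  have hq := h M hM
  have hPM : (P : Subgroup G) ≤ M := Subgroup.le_normalizer.trans hNM
  have e1 : Nat.card (Sylow p M) = (Subgroup.normalizer ((P : Subgroup G) : Set G)).relIndex M := by
    rw [(P.subtype hPM).card_eq_index_normalizer, Subgroup.relIndex]
    congr 1
    ext x
    simp only [Subgroup.mem_subgroupOf, Subgroup.mem_normalizer_iff]
    constructor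
    · intro hx g
      by_cases hg : g ∈ M
      · exact hx ⟨g, hg⟩
      · refine ⟨fun h' => absurd (hPM h') hg, fun h' => absurd ?_ hg⟩
        have := M.mul_mem (M.mul_mem (M.inv_mem x.2) (hPM h')) x.2
        simpa [mul_assoc] using this
    · intro hx g
      exact hx g
  have e2 : Nat.card (Sylow p G) = (Subgroup.normalizer ((P : Subgroup G) : Set G)).index := P.card_eq_index_normalizer
  have e3 := Subgroup.relIndex_mul_index hNM
  have c1 := card_sylow_modEq_one p M
  have c2 := card_sylow_modEq_one p G
  rw [e1] at c1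
  rw [e2, ← e3] at c2
  have c3 : M.index ≡ 1 [MOD p] := by
    have := (c1.mul_right M.index).symm.trans c2
    rwa [one_mul] at this
  have hle : M.index ≤ p := hmax _ hq M.index_dvd_card
  rcases hle.lt_or_eq with hlt | heq
  · exact hq.ne_one (Nat.ModEq.eq_of_lt_of_lt c3 hlt hpp.out.one_lt)
  · rw [heq] at c3
    have : p % p = 1 % p := c3
    rw [Nat.mod_self, Nat.one_mod_eq_one.mpr hpp.out.ne_one] at this
    exact zero_ne_one this

theorem exists_chain {G : Type u} [Group G] [Finite G] (hG : IsSupersolvable G) :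
    ∃ (n : ℕ) (H : Fin (n + 1) → Subgroup G), H 0 = ⊥ ∧ H (Fin.last n) = ⊤ ∧ (∀ i, (H i).Normal) ∧
      (∀ i : Fin n, H i.castSucc ≤ H i.succ ∧ ((H i.castSucc).relIndex (H i.succ)).Prime) ∧
      ∀ i j : Fin n, i ≤ j → (H j.castSucc).relIndex (H j.succ) ≤ (H i.castSucc).relIndex (H i.succ) := by
  classical
  induction hn : Nat.card G using Nat.strong_induction_on generalizing G with
  | _ n ih =>
    subst hn
    by_cases h1 : Nat.card G = 1
    · haveI : Subsingleton G := (Nat.card_eq_one_iff_unique.mp h1).1
      exact ⟨0, fun _ => ⊥, rfl, Subsingleton.elim _ _, fun _ => inferInstance, fun i => i.elim0, fun i => i.elim0⟩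
    have hne : (Nat.card G).primeFactors.Nonempty := Nat.nonempty_primeFactors.mpr (by
      have := Nat.card_pos (α := G); omega)
    set p := (Nat.card G).primeFactors.max' hne with hp
    obtain ⟨hpp, hpd, -⟩ := Nat.mem_primeFactors.mp (Finset.max'_mem _ hne)
    rw [← hp] at hpp hpd
    haveI := Fact.mk hpp
    have hmax : ∀ q : ℕ, q.Prime → q ∣ Nat.card G → q ≤ p := fun q hq hqd =>
      Finset.le_max' _ _ (Nat.mem_primeFactors.mpr ⟨hq, hqd, Nat.card_pos.ne'⟩)
    obtain ⟨P⟩ : Nonempty (Sylow p G) := inferInstance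
    have hPn := sylow_normal (fun M hM => Cfsg.Agent.S0527.result hG M hM) hmax P
    obtain ⟨N, hN⟩ := (Set.toFinite {K : Subgroup G | K.Normal ∧ K ≠ ⊥ ∧ K ≤ (P : Subgroup G)}).exists_minimal
      ⟨(P : Subgroup G), hPn, fun e => by
        have := P.dvd_card_of_dvd_card hpd
        rw [e, Subgroup.card_bot] at this
        exact hpp.one_lt.ne' (Nat.dvd_one.mp this), le_rfl⟩
    obtain ⟨hNn, hN0, hNP⟩ := hN.prop
    haveI := hNn
    have hNcard : Nat.card N = p := by
      have hpr := Huppert.card_minimal hG hN0 fun K hK hKN => by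
        by_contra hc
        push_neg at hc
        exact hc.2 (le_antisymm hKN (hN.le_of_le ⟨hK, hc.1, hKN.trans hNP⟩ hKN))
      obtain ⟨k, hk⟩ := P.2.exists_card_eq
      exact (Nat.prime_dvd_prime_iff_eq hpr hpp).mp (hpr.dvd_of_dvd_pow (hk ▸ Subgroup.card_dvd_of_le hNP))
    have hlt : Nat.card (G ⧸ N) < Nat.card G := by
      rw [N.card_eq_card_quotient_mul_card_subgroup, hNcard]
      exact lt_mul_of_one_lt_right Nat.card_pos hpp.one_lt
    have hsurj := QuotientGroup.mk'_surjective N
    obtain ⟨k, H, h0, hl, hnor, hst, hmono⟩ :=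
      ih _ hlt (isSupersolvable_of_surjective _ hsurj hG) rfl
    have hrel : ∀ i : Fin k, ((H i.castSucc).comap (QuotientGroup.mk' N)).relIndex ((H i.succ).comap (QuotientGroup.mk' N)) =
        (H i.castSucc).relIndex (H i.succ) := fun i => by
      rw [Subgroup.relIndex_comap, Subgroup.map_comap_eq_self_of_surjective hsurj]
    refine ⟨k + 1, Fin.cons ⊥ (fun i => (H i).comap (QuotientGroup.mk' N)), rfl, ?_, ?_, ?_, ?_⟩
    · rw [← Fin.succ_last, Fin.cons_succ, hl, Subgroup.comap_top]
    · refine Fin.cases ?_ ?_
      · rw [Fin.cons_zero]; infer_instance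
      · intro i; rw [Fin.cons_succ]; exact (hnor i).comap _
    · refine Fin.cases ?_ ?_
      · rw [Fin.castSucc_zero, Fin.cons_zero, Fin.cons_succ, h0, MonoidHom.comap_bot, QuotientGroup.ker_mk',
          Subgroup.relIndex_bot_left, hNcard]
        exact ⟨bot_le, hpp⟩
      · intro i
        rw [Fin.castSucc_succ, Fin.cons_succ, Fin.cons_succ, hrel]
        exact ⟨Subgroup.comap_mono (hst i).1, (hst i).2⟩
    · intro i j hij
      induction i using Fin.cases with
      | zero =>
        induction j using Fin.cases with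
        | zero => exact le_rfl
        | succ j =>
          rw [Fin.castSucc_succ, Fin.cons_succ, Fin.cons_succ, hrel, Fin.castSucc_zero, Fin.cons_zero, Fin.cons_succ, h0,
            MonoidHom.comap_bot, QuotientGroup.ker_mk', Subgroup.relIndex_bot_left, hNcard]
          exact hmax _ (hst j).2 (((Subgroup.relIndex_dvd_card _ _).trans (Subgroup.card_subgroup_dvd_card _)).trans
            (Subgroup.card_dvd_of_surjective _ hsurj))
      | succ i =>
        induction j using Fin.cases with
        | zero => exact absurd hij (by simp)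
        | succ j =>
          simp only [Fin.castSucc_succ, Fin.cons_succ, hrel]
          exact hmono i j (Fin.succ_le_succ_iff.mp hij)

end CfsgLib.Supersolvable.Tower
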