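import Cfsg.Agent.Lib.Supersolvable.Reach
import Cfsg.Agent.Lib.Supersolvable.Prime
import Cfsg.Agent.Lib.Supersolvable.Maximal
import Cfsg.Agent.Lib.PLocal.ProductSet
import Mathlib.GroupTheory.SpecificGroups.Cyclic.Basic

/-! A product of two cyclic groups is supersolvable (Douglas). -/

set_option autoImplicit false
set_option linter.style.haveILetI false

namespace CfsgLib.Supersolvable.TwoCyclic

open Subgroup
open scoped Pointwise

universe u

theorem eq_of_card {G : Type u} [Group G] [Finite G] {A D E : Subgroup G} [IsCyclic A] (hD : D ≤ A) (hE : E ≤ A)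
    (h : Nat.card D = Nat.card E) : D = E := by
  classical
  cases nonempty_fintype ↥A
  have hsub : ∀ F : Subgroup G, F ≤ A → Nat.card F = Nat.card D →
      (Finset.univ.filter fun x : A => (x : G) ∈ F) = Finset.univ.filter fun x : A => x ^ Nat.card D = 1 := by
    intro F hF hc
    refine Finset.eq_of_subset_of_card_le (fun x hx => ?_) ?_
    · simp only [Finset.mem_filter, Finset.mem_univ, true_and] at hx ⊢
      apply Subtype.ext
      have := congrArg Subtype.val (pow_card_eq_one' (G := F) (x := ⟨x, hx⟩))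
      rw [hc] at this
      simpa using this
    · refine (IsCyclic.card_pow_eq_one_le Nat.card_pos).trans (le_of_eq ?_)
      rw [← Fintype.card_subtype, ← Nat.card_eq_fintype_card, ← hc]
      exact Nat.card_congr (Subgroup.subgroupOfEquivOfLe hF).symm.toEquiv
  ext x
  constructor <;> intro hx
  · have := (hsub E hE h.symm).trans (hsub D hD rfl).symm
    have h2 := congrArg (fun s => (⟨x, hD hx⟩ : A) ∈ s) this
    simpa [hx] using h2
  · have := (hsub E hE h.symm).trans (hsub D hD rfl).symm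
    have h2 := congrArg (fun s => (⟨x, hE hx⟩ : A) ∈ s) this
    simpa [hx] using h2

theorem exists_prime_normal {G : Type u} [Group G] [Finite G] [Nontrivial G] (A B : Subgroup G) [IsCyclic A] [IsCyclic B]
    (hAB : ∀ g : G, ∃ a ∈ A, ∃ b ∈ B, g = a * b) (hle : Nat.card B ≤ Nat.card A) :
    ∃ x : G, (orderOf x).Prime ∧ (zpowers x).Normal := by
  obtain ⟨b, hb⟩ := Subgroup.isCyclic_iff_exists_zpowers_eq_top B |>.mp inferInstance
  have hG : Nat.card G ≤ Nat.card A * Nat.card B := by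
    rw [← Nat.card_prod]
    refine Nat.card_le_card_of_surjective (fun x : A × B => (x.1 : G) * x.2) fun g => ?_
    obtain ⟨a, ha, c, hc, rfl⟩ := hAB g
    exact ⟨(⟨a, ha⟩, ⟨c, hc⟩), rfl⟩
  set A' := A.map (MulAut.conj b).toMonoidHom with hA'
  set D := A ⊓ A' with hD
  have hcA : Nat.card A' = Nat.card A :=
    (Nat.card_congr (A.equivMapOfInjective _ (MulAut.conj b).injective).toEquiv).symm
  have hA0 : A ≠ ⊥ := fun e => by
    rw [e, Subgroup.card_bot] at hle hG
    have : Nat.card G ≤ 1 := hG.trans (by omega)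
    exact absurd Finite.one_lt_card (by omega : ¬ 1 < Nat.card G)
  have hD0 : D ≠ ⊥ := fun e => by
    have h1 := CfsgLib.PLocal.ProductSet.card_mul_eq A A'
    rw [← hD, e, Subgroup.card_bot, mul_one, hcA, ← SetLike.coe_sort_coe, Nat.card_coe_set_eq, Nat.card_coe_set_eq] at h1
    have h2 : ((A : Set G) * (A' : Set G)) = Set.univ := by
      refine Set.eq_of_subset_of_ncard_le (Set.subset_univ _) ?_
      rw [Set.ncard_univ, h1, ← Nat.card_coe_set_eq]
      exact hG.trans (Nat.mul_le_mul_left _ hle)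
    have hbm : b⁻¹ ∈ (A : Set G) * (A' : Set G) := h2 ▸ Set.mem_univ b⁻¹
    obtain ⟨a1, ha1, _, ⟨a2, ha2, rfl⟩, he⟩ := hbm
    have hbA : b ∈ A := by
      have : b = a1⁻¹ * a2⁻¹ := by
        have h3 : a1 * (b * a2 * b⁻¹) = b⁻¹ := he
        calc b = a1⁻¹ * (a1 * (b * a2 * b⁻¹)) * b * a2⁻¹ := by group
          _ = _ := by rw [h3]; group
      rw [this]; exact mul_mem (inv_mem ha1) (inv_mem ha2)
    apply hA0
    rw [← e, hD, hA']
    refine (inf_eq_left.mpr fun x hx => ⟨b⁻¹ * x * b, mul_mem (mul_mem (inv_mem hbA) hx) hbA, ?_⟩).symm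
    show b * (b⁻¹ * x * b) * b⁻¹ = x
    group
  have hnb : D.map (MulAut.conj b⁻¹).toMonoidHom = D := by
    refine eq_of_card (A := A) ?_ inf_le_left
      (Nat.card_congr (D.equivMapOfInjective _ (MulAut.conj b⁻¹).injective).toEquiv).symm
    rintro _ ⟨_, ⟨-, a, ha, rfl⟩, rfl⟩
    show b⁻¹ * (b * a * b⁻¹) * b⁻¹⁻¹ ∈ A
    rwa [show b⁻¹ * (b * a * b⁻¹) * b⁻¹⁻¹ = a by group]
  have hbN : b⁻¹ ∈ Subgroup.normalizer (D : Set G) := Subgroup.mem_normalizer_iff_map_conj_eq.mpr hnb
  have hAN : A ≤ Subgroup.normalizer (D : Set G) := fun a ha => Subgroup.mem_normalizer_fintype fun x hx => by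
    letI : CommGroup A := IsCyclic.commGroup
    have := congrArg Subtype.val (mul_comm (⟨a, ha⟩ : A) ⟨x, hx.1⟩)
    simp only [Subgroup.coe_mul] at this
    show a * x * a⁻¹ ∈ D
    rwa [this, mul_inv_cancel_right]
  haveI hDn : D.Normal := by
    rw [← Subgroup.normalizer_eq_top_iff, eq_top_iff]
    intro g _
    obtain ⟨a, ha, c, hc, rfl⟩ := hAB g
    refine mul_mem (hAN ha) ?_
    rw [← hb] at hc
    exact (Subgroup.zpowers_le.mpr (by simpa using inv_mem hbN)) hc
  obtain ⟨d, hd⟩ := Subgroup.isCyclic_iff_exists_zpowers_eq_top D |>.mp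
    (Subgroup.isCyclic_of_le (inf_le_left : D ≤ A))
  obtain ⟨q, hq, hqd⟩ := Nat.exists_prime_and_dvd (n := Nat.card D) (fun e => hD0 (Subgroup.card_eq_one.mp e))
  haveI : Fact q.Prime := ⟨hq⟩
  obtain ⟨x, hx⟩ := exists_prime_orderOf_dvd_card' q hqd
  refine ⟨(x : G), by rw [Subgroup.orderOf_coe, hx]; exact hq, ?_⟩
  refine normal_of_le_zpowers (g := d) (hd.symm ▸ hDn) ?_
  rw [hd]
  exact Subgroup.zpowers_le.mpr x.2

theorem isSupersolvable {G : Type u} [Group G] [Finite G] (A B : Subgroup G) [IsCyclic A] [IsCyclic B]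
    (hAB : ∀ g : G, ∃ a ∈ A, ∃ b ∈ B, g = a * b) : Cfsg.IsSupersolvable G := by
  induction hn : Nat.card G using Nat.strong_induction_on generalizing G with
  | _ n ih =>
    subst hn
    by_cases hnt : Nontrivial G
    swap
    · rw [not_nontrivial_iff_subsingleton] at hnt
      exact iff_reach.mpr (Subsingleton.elim (⊥ : Subgroup G) ⊤ ▸ Reach.bot)
    have hBA : ∀ g : G, ∃ b ∈ B, ∃ a ∈ A, g = b * a := fun g => by
      obtain ⟨a, ha, b, hb, he⟩ := hAB g⁻¹
      exact ⟨b⁻¹, inv_mem hb, a⁻¹, inv_mem ha, by rw [← mul_inv_rev, ← he, inv_inv]⟩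
    obtain ⟨x, hx, hxn⟩ := (le_total (Nat.card B) (Nat.card A)).elim (exists_prime_normal A B hAB)
      (exists_prime_normal B A hBA)
    haveI := hxn
    refine of_reach_quotient (reach_zpowers hxn) ?_
    haveI : IsCyclic (A.map (QuotientGroup.mk' (zpowers x))) :=
      isCyclic_of_surjective _ ((QuotientGroup.mk' (zpowers x)).subgroupMap_surjective A)
    haveI : IsCyclic (B.map (QuotientGroup.mk' (zpowers x))) :=
      isCyclic_of_surjective _ ((QuotientGroup.mk' (zpowers x)).subgroupMap_surjective B)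
    refine ih _ ?_ (A.map (QuotientGroup.mk' (zpowers x))) (B.map (QuotientGroup.mk' (zpowers x))) ?_ rfl
    · rw [card_quotient_zpowers (x := x)]
      exact lt_mul_of_one_lt_right Nat.card_pos hx.one_lt
    · intro g
      obtain ⟨g, rfl⟩ := QuotientGroup.mk'_surjective _ g
      obtain ⟨a, ha, b, hb, rfl⟩ := hAB g
      exact ⟨_, Subgroup.mem_map_of_mem _ ha, _, Subgroup.mem_map_of_mem _ hb, map_mul _ _ _⟩

end CfsgLib.Supersolvable.TwoCyclic
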